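import Mathlib
import Cfsg.Agent.Lib.Helper31.Siegel.Defs

/-!
# Siegel (S5072), package [CLASSIFY] (helper21)
-/

set_option autoImplicit false
open scoped Matrix

namespace Cfsg.Agent.Lib.Helper21.Siegel

open Cfsg.Agent.Lib.Helper31.Siegel

universe u

section

variable {n : ℕ} {F : Type u} [Field F]

theorem cl_rowdep (a b c d : F) (hdet : a * d - b * c = 0) :
    ∃ α β : F, (α ≠ 0 ∨ β ≠ 0) ∧ α * a + β * c = 0 ∧ α * b + β * d = 0 := by
  by_cases ha : a = 0
  · by_cases hb : b = 0
    · exact ⟨1, 0, Or.inl one_ne_zero, by rw [ha]; ring, by rw [hb]; ring⟩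
    · refine ⟨d, -b, Or.inr (neg_ne_zero.mpr hb), ?_, ?_⟩
      · linear_combination hdet
      · ring
  · refine ⟨c, -a, Or.inr (neg_ne_zero.mpr ha), ?_, ?_⟩
    · ring
    · linear_combination -hdet

theorem cl_B_line (p r : Vec n F) (h : IsSingLine p r) : B p r = 0 := by
  obtain ⟨_, hp, hr, hpr⟩ := h
  unfold B
  rw [hpr, hp, hr]; ring

theorem cl_B_comb (p r s t : Vec n F) (a b c d : F) :
    B (a • p + b • r) (c • s + d • t) =
      a * c * B p s + a * d * B p t + b * c * B r s + b * d * B r t := by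
  simp only [B_add_left, B_add_right, B_smul_left, B_smul_right]
  ring

theorem cl_Q_comb (p r : Vec n F) (h : IsSingLine p r) (a b : F) :
    QF n F (a • p + b • r) = 0 := by
  have hB := cl_B_line p r h
  obtain ⟨_, hp, hr, _⟩ := h
  rw [Q_add, Q_smul, Q_smul, B_smul_left, B_smul_right, hp, hr, hB]; ring

theorem cl_comb_ne (p r : Vec n F) (h : IsSingLine p r) (a b : F) (hab : a ≠ 0 ∨ b ≠ 0) :
    a • p + b • r ≠ 0 := by
  intro h0
  have hli := h.1
  rw [LinearIndependent.pair_iff] at hli
  obtain ⟨h1, h2⟩ := hli a b h0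
  rcases hab with h | h
  · exact h h1
  · exact h h2

theorem cl_core (p r s t : Vec n F) (hpr : IsSingLine p r) (hst : IsSingLine s t)
    (hdisj : ¬ ∃ α β γ δ : F, (α ≠ 0 ∨ β ≠ 0) ∧ α • p + β • r = γ • s + δ • t)
    (α β γ δ : F) (hαβ : α ≠ 0 ∨ β ≠ 0) (hγδ : γ ≠ 0 ∨ δ ≠ 0)
    (h1 : α * B p s + β * B r s = 0) (h2 : α * B p t + β * B r t = 0)
    (h3 : γ * B p s + δ * B p t = 0) (h4 : γ * B r s + δ * B r t = 0)
    (cu du cw dw : F)
    (huw : B (cu • p + du • r) (cw • s + dw • t) ≠ 0) :
    ∃ p' r' s' t' : Vec n F, Reb p r p' r' ∧ Reb s t s' t' ∧ IsSingLine s' p' ∧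
      B p' s' = 0 ∧ B p' t' = 0 ∧ B r' s' = 0 ∧ B r' t' = 1 := by
  have hkexp := cl_B_comb p r s t cu du cw dw
  generalize hk : B (cu • p + du • r) (cw • s + dw • t) = k at huw hkexp
  refine ⟨α • p + β • r, cu • p + du • r, γ • s + δ • t, k⁻¹ • (cw • s + dw • t),
    ?_, ?_, ?_, ?_, ?_, ?_, ?_⟩
  · refine ⟨α, β, cu, du, ?_, rfl, rfl⟩
    intro hd
    apply huw
    rcases hαβ with ha | hb
    · have h0 : α * k = 0 := by
        rw [hkexp]
        linear_combination (cu * cw) * h1 + (cu * dw) * h2 + (cw * B r s + dw * B r t) * hd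
      exact (mul_eq_zero.1 h0).resolve_left ha
    · have h0 : β * k = 0 := by
        rw [hkexp]
        linear_combination (du * cw) * h1 + (du * dw) * h2 - (cw * B p s + dw * B p t) * hd
      exact (mul_eq_zero.1 h0).resolve_left hb
  · refine ⟨γ, δ, k⁻¹ * cw, k⁻¹ * dw, ?_, rfl, ?_⟩
    · intro hd
      have hd' : γ * dw - δ * cw = 0 := by
        have h5 : k⁻¹ * (γ * dw - δ * cw) = 0 := by linear_combination hd
        exact (mul_eq_zero.1 h5).resolve_left (inv_ne_zero huw)
      apply huw
      rcases hγδ with hg | hdl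
      · have h0 : γ * k = 0 := by
          rw [hkexp]
          linear_combination (cu * cw) * h3 + (du * cw) * h4 + (cu * B p t + du * B r t) * hd'
        exact (mul_eq_zero.1 h0).resolve_left hg
      · have h0 : δ * k = 0 := by
          rw [hkexp]
          linear_combination (cu * dw) * h3 + (du * dw) * h4 - (cu * B p s + du * B r s) * hd'
        exact (mul_eq_zero.1 h0).resolve_left hdl
    · rw [smul_add, smul_smul, smul_smul]
  · have hBsp : B (γ • s + δ • t) (α • p + β • r) = 0 := by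
      rw [cl_B_comb, B_comm s p, B_comm s r, B_comm t p, B_comm t r]
      linear_combination α * h3 + β * h4
    refine ⟨?_, cl_Q_comb s t hst γ δ, cl_Q_comb p r hpr α β, ?_⟩
    · rw [LinearIndependent.pair_iff]
      intro a b hab
      by_cases hb : b = 0
      · refine ⟨?_, hb⟩
        rw [hb, zero_smul, add_zero, smul_add, smul_smul, smul_smul] at hab
        have hli := hst.1
        rw [LinearIndependent.pair_iff] at hli
        obtain ⟨e1, e2⟩ := hli _ _ hab
        rcases hγδ with hg | hdl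
        · exact (mul_eq_zero.1 e1).resolve_right hg
        · exact (mul_eq_zero.1 e2).resolve_right hdl
      · exfalso
        apply hdisj
        refine ⟨b * α, b * β, -(a * γ), -(a * δ), ?_, ?_⟩
        · rcases hαβ with ha | hbb
          · exact Or.inl (mul_ne_zero hb ha)
          · exact Or.inr (mul_ne_zero hb hbb)
        · have e1 : (b * α) • p + (b * β) • r = b • (α • p + β • r) := by
            rw [smul_add, smul_smul, smul_smul]
          have e2 : (-(a * γ)) • s + (-(a * δ)) • t = -(a • (γ • s + δ • t)) := by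
            rw [smul_add, smul_smul, smul_smul, neg_smul, neg_smul, neg_add]
          rw [e1, e2]
          exact eq_neg_of_add_eq_zero_right hab
    · rw [Q_add, cl_Q_comb s t hst γ δ, cl_Q_comb p r hpr α β, hBsp]; ring
  · rw [cl_B_comb]
    linear_combination α * h3 + β * h4
  · rw [B_smul_right, cl_B_comb]
    have h0 : α * cw * B p s + α * dw * B p t + β * cw * B r s + β * dw * B r t = 0 := by
      linear_combination cw * h1 + dw * h2
    rw [h0, mul_zero]
  · rw [cl_B_comb]
    linear_combination cu * h3 + du * h4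
  · rw [B_smul_right, hk]
    exact inv_mul_cancel₀ huw

end

/-- [CLASSIFY]. -/
theorem pkgClassify : PkgClassify.{u} := by
  intro n F _ p r s t hpr hst
  by_cases hopp : B p s * B r t - B p t * B r s = 0
  swap
  · right; right; right; exact hopp
  by_cases hmeet : ∃ α β γ δ : F, (α ≠ 0 ∨ β ≠ 0) ∧ α • p + β • r = γ • s + δ • t
  · right; left
    obtain ⟨α, β, γ, δ, hαβ, heq⟩ := hmeet
    have hp' : α • p + β • r ≠ 0 := cl_comb_ne p r hpr α β hαβ
    have hγδ : γ ≠ 0 ∨ δ ≠ 0 := by
      by_contra hcon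
      push Not at hcon
      apply hp'
      rw [heq, hcon.1, hcon.2]; simp
    have hR1 : ∃ r', Reb p r (α • p + β • r) r' := by
      by_cases ha : α = 0
      · have hb : β ≠ 0 := by
          rcases hαβ with h | h
          · exact absurd ha h
          · exact h
        exact ⟨p, α, β, 1, 0, by simpa using hb, rfl, by simp⟩
      · exact ⟨r, α, β, 0, 1, by simpa using ha, rfl, by simp⟩
    have hR2 : ∃ t', Reb s t (α • p + β • r) t' := by
      rw [heq]
      by_cases hg : γ = 0
      · have hd : δ ≠ 0 := by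
          rcases hγδ with h | h
          · exact absurd hg h
          · exact h
        exact ⟨s, γ, δ, 1, 0, by simpa using hd, rfl, by simp⟩
      · exact ⟨t, γ, δ, 0, 1, by simpa using hg, rfl, by simp⟩
    obtain ⟨r', hr'⟩ := hR1
    obtain ⟨t', ht'⟩ := hR2
    exact ⟨_, r', t', hr', ht'⟩
  by_cases hzero : B p s = 0 ∧ B p t = 0 ∧ B r s = 0 ∧ B r t = 0
  · left; exact hzero
  right; right; left
  obtain ⟨α, β, hαβ, h1, h2⟩ := cl_rowdep (B p s) (B p t) (B r s) (B r t) hopp
  obtain ⟨γ, δ, hγδ, h3, h4⟩ := cl_rowdep (B p s) (B r s) (B p t) (B r t)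
    (by linear_combination hopp)
  have hent : ∃ cu du cw dw : F, B (cu • p + du • r) (cw • s + dw • t) ≠ 0 := by
    by_contra hcon
    push Not at hcon
    apply hzero
    refine ⟨?_, ?_, ?_, ?_⟩
    · simpa [cl_B_comb] using hcon 1 0 1 0
    · simpa [cl_B_comb] using hcon 1 0 0 1
    · simpa [cl_B_comb] using hcon 0 1 1 0
    · simpa [cl_B_comb] using hcon 0 1 0 1
  obtain ⟨cu, du, cw, dw, huw⟩ := hent
  exact cl_core p r s t hpr hst hmeet α β γ δ hαβ hγδ h1 h2 h3 h4 cu du cw dw huw

end Cfsg.Agent.Lib.Helper21.Siegel
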