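import Mathlib
import Cfsg.Agent.Lib.Helper31.Siegel.Defs

/-!
# Siegel (S5072), package [CONJ] (helper21)
-/

set_option autoImplicit false
open scoped Matrix

namespace Cfsg.Agent.Lib.Helper21.Siegel

open Cfsg.Agent.Lib.Helper31.Siegel

universe u

theorem pkgConj : PkgConj.{u} := by
  intro n F _ p r hpr g
  obtain ⟨hli, hQp, hQr, hQpr⟩ := hpr
  refine ⟨⟨?_, ?_, ?_, ?_⟩, ?_⟩
  · rw [LinearIndependent.pair_iff] at hli ⊢
    intro s t hst
    apply hli s t
    have h1 : mat g *ᵥ (s • p + t • r) = 0 := by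
      rw [Matrix.mulVec_add, Matrix.mulVec_smul, Matrix.mulVec_smul]
      exact hst
    have h2 := inv_act g (s • p + t • r)
    rw [h1, Matrix.mulVec_zero] at h2
    exact h2.symm
  · rw [Q_act]; exact hQp
  · rw [Q_act]; exact hQr
  · rw [← Matrix.mulVec_add, Q_act]; exact hQpr
  · show (T p r).map (MulAut.conj g).toMonoidHom = T (mat g *ᵥ p) (mat g *ᵥ r)
    unfold T
    rw [MonoidHom.map_closure]
    congr 1
    ext τ
    constructor
    · rintro ⟨σ, hσ, rfl⟩
      rw [mem_fixSet] at hσ ⊢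
      intro v hvp hvr
      have e1 : B (mat g⁻¹ *ᵥ v) p = 0 := by
        rw [← B_act g, act_inv]; exact hvp
      have e2 : B (mat g⁻¹ *ᵥ v) r = 0 := by
        rw [← B_act g, act_inv]; exact hvr
      have h3 := hσ _ e1 e2
      show mat (g * σ * g⁻¹) *ᵥ v = v
      rw [mul_act, mul_act, h3, act_inv]
    · intro hτ
      rw [mem_fixSet] at hτ
      refine ⟨g⁻¹ * τ * g, ?_, ?_⟩
      · rw [mem_fixSet]
        intro v hvp hvr
        have e1 : B (mat g *ᵥ v) (mat g *ᵥ p) = 0 := by rw [B_act]; exact hvp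
        have e2 : B (mat g *ᵥ v) (mat g *ᵥ r) = 0 := by rw [B_act]; exact hvr
        rw [mul_act, mul_act, hτ _ e1 e2, inv_act]
      · show g * (g⁻¹ * τ * g) * g⁻¹ = τ
        group

end Cfsg.Agent.Lib.Helper21.Siegel
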